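import Mathlib
import Cfsg.Prelude.Def_BaumannBlocks
import Cfsg.Agent.Lib.PGroup.BaumannSect

/-!
# Subnormal Baumann blocks: vocabulary for S2986

`Y = O_p(G)`, `Q = O_p(E)`, `W̃ = Ω₁Z(Q)`, `Z = C_{W̃}(E)`, `W_E = [W̃, E]`.
-/

set_option autoImplicit false

namespace Cfsg.Agent.Lib.BlockS

open Subgroup Cfsg Cfsg.Agent.Lib.PGroup.BaumannSect
open scoped commutatorElement

variable {G : Type*} [Group G]

/-- `Ω₁Z(O_p(E))`. -/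
abbrev Wt (p : ℕ) (E : Subgroup G) : Subgroup G := omegaOneCenter p (pCoreOf p E)

/-- `C_{W̃}(E)`. -/
abbrev Zt (p : ℕ) (E : Subgroup G) : Subgroup G := Wt p E ⊓ centralizer (E : Set G)

/-- `W_E = [W̃, E]`. -/
abbrev WE (p : ℕ) (E : Subgroup G) : Subgroup G := ⁅Wt p E, E⁆

/-- A subnormal Baumann block of a group of characteristic `p`. -/
structure SB (p : ℕ) (E : Subgroup G) : Prop where
  hG : centralizer (pCore p G : Set G) ≤ pCore p G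
  hE : ∃ T : Sylow p G, IsBaumannBlock p (T : Subgroup G) E
  hs : E.IsSubnormal

/-- The exceptional shape (`p = 3`). -/
structure Exc (p : ℕ) (E : Subgroup G) : Prop where
  p3 : p = 3
  comm : ⁅pCoreOf p E, pCoreOf p E⁆ = Zt p E
  irrQ : IrrSect E (pCoreOf p E) (Wt p E)
  nq : ∃ b : G, IsPGroup p (zpowers b) ∧ b ∈ normalizer (E : Set G) ∧
    b ∉ centralizer (Wt p E : Set G) ∧
    ¬ ⁅⁅pCoreOf p E, zpowers b⁆, zpowers b⁆ ≤ Zt p E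

/-- Perfect type: `E` perfect, `E / O_p(E)` quasisimple. -/
structure TypeP (p : ℕ) (E : Subgroup G) : Prop where
  perf : ⁅E, E⁆ = E
  qs : IsQuasisimple (↥E ⧸ pCore p ↥E)

/-- `p = 2`, `E / O_2(E)` of order 3, `O_2(E) = W_E` of order 4. -/
structure TypeC3 (p : ℕ) (E : Subgroup G) : Prop where
  p2 : p = 2
  card : Nat.card (↥E ⧸ pCore p ↥E) = 3
  Q_eq : pCoreOf p E = WE p E
  cardQ : Nat.card (pCoreOf p E) = 4
  Z_bot : Zt p E = ⊥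

/-- `p = 3`, `E / O_3(E) ≅ Q₈`, expressed by what is needed of it. -/
structure TypeQ8 (p : ℕ) (E : Subgroup G) : Prop where
  p3 : p = 3
  neg : ∃ t ∈ ⁅E, E⁆, (orderOf t).Coprime 3 ∧ t ^ 2 = 1 ∧
    (∀ w ∈ Wt p E, t * w * t⁻¹ * w ∈ Zt p E) ∧ (∀ x ∈ pCoreOf p E, t * x * t⁻¹ * x ∈ Wt p E)
  two : ∀ x ∈ E, ∃ k : ℕ, x ^ (2 ^ k) ∈ pCoreOf p E
  card : Nat.card (WE p E) = 9
  inf : WE p E ⊓ Zt p E = ⊥
  faith : ∀ x ∈ E, (∀ w ∈ WE p E, x * w * x⁻¹ = w) → x ∈ pCoreOf p E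
  /-- Schur on `W_E` -/
  schur : ∀ z : G, z ∈ normalizer (WE p E : Set G) →
    (∀ e ∈ E, ∀ w ∈ WE p E, z * (e * w * e⁻¹) * z⁻¹ = e * (z * w * z⁻¹) * e⁻¹) →
    (∀ w ∈ WE p E, z * w * z⁻¹ = w) ∨ (∀ w ∈ WE p E, z * w * z⁻¹ = w⁻¹)
  /-- every element of `E` acts on `W_E` as `±1` or squares to `-1` -/
  qtype : ∀ x ∈ E, (∀ w ∈ WE p E, x * w * x⁻¹ = w) ∨ (∀ w ∈ WE p E, x * w * x⁻¹ = w⁻¹) ∨
    (∀ w ∈ WE p E, x ^ 2 * w * (x ^ 2)⁻¹ = w⁻¹)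
  /-- uniqueness of `Q₈` in `GL₂(3)`: any such automorphism comes from `E` -/
  uniq : ∀ z : G, z ∈ normalizer (WE p E : Set G) →
    ((∀ w ∈ WE p E, z * w * z⁻¹ = w) ∨ (∀ w ∈ WE p E, z * w * z⁻¹ = w⁻¹) ∨
      (∀ w ∈ WE p E, z ^ 2 * w * (z ^ 2)⁻¹ = w⁻¹)) →
    ∃ x ∈ E, ∀ w ∈ WE p E, z * w * z⁻¹ = x * w * x⁻¹
  /-- Schur on `Q / W̃` in the exceptional case -/
  schurQ : Exc p E → ∀ z : G, z ∈ normalizer (pCoreOf p E : Set G) →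
    (∀ e ∈ E, ⁅e, z⁆ ∈ pCoreOf p E) →
    (∀ x ∈ pCoreOf p E, ⁅z, x⁆ ∈ Wt p E) ∨ (∀ x ∈ pCoreOf p E, z * x * z⁻¹ * x ∈ Wt p E)
  /-- `|Q / W̃| = 9` in the exceptional case -/
  cardQ : Exc p E → Nat.card (pCoreOf p E) = 9 * Nat.card (Wt p E)

/-- The preimage of `O_r(G / O_p(G))`. -/
noncomputable def Rr (p r : ℕ) (G : Type*) [Group G] : Subgroup G :=
  (pCore r (G ⧸ pCore p G)).comap (QuotientGroup.mk' (pCore p G))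

end Cfsg.Agent.Lib.BlockS
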